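import Cfsg.Agent.Lib.Helper59.ASU9.Defs
import Cfsg.Agent.Lib.Helper77.AschG.PT
import Cfsg.Agent.Lib.Helper17.TensorForm
import Cfsg.Agent.Lib.Helper17.Herm

/-! General `s` versions of the ASU9 rungs T2WG / T2WF (helper62): from a tensor product `s ⊗ s` of unitary spaces to a tensor power. -/

set_option autoImplicit false

namespace Cfsg.Agent.Lib.Helper62.UGT

open Cfsg Cfsg.Geo Cfsg.Agent.Lib.Helper77.Asch Cfsg.Agent.Lib.Helper77.AschG Cfsg.Agent.Lib.Helper32.AschU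
  Cfsg.Agent.Lib.Helper80.AS Cfsg.Agent.Lib.Helper47.UC
open scoped MatrixGroups Matrix Kronecker

variable {n s : ℕ} {F : Type*} [Field F]

/-- from the index set `Fin s × Fin s` of a tensor product to the index set `Fin 2 → Fin s` of a tensor power. -/
abbrev eWs (e : Fin n ≃ Fin s × Fin s) : Fin n ≃ (Fin 2 → Fin s) :=
  e.trans (finTwoArrowEquiv (Fin s)).symm


theorem t2wg_map_conj {G : Type*} [Group G] (K : Subgroup G) (P k : G) (hk : k ∈ K) :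
    K.map (MulAut.conj (P * k)).toMonoidHom = K.map (MulAut.conj P).toMonoidHom := by
  ext g
  constructor
  · rintro ⟨x, hx, rfl⟩
    refine ⟨k * x * k⁻¹, K.mul_mem (K.mul_mem hk hx) (K.inv_mem hk), ?_⟩
    simp [MulAut.conj_apply, mul_assoc]
  · rintro ⟨x, hx, rfl⟩
    refine ⟨k⁻¹ * x * k, K.mul_mem (K.mul_mem (K.inv_mem hk) hx) hk, ?_⟩
    simp [MulAut.conj_apply, mul_assoc]

/-- the unit with matrix `C₁ ⊗ₖ C₂`. -/
def t2wgK (C₁ C₂ : GL (Fin s) F) : GL (Fin s × Fin s) F where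
  val := (C₁ : Matrix (Fin s) (Fin s) F) ⊗ₖ (C₂ : Matrix (Fin s) (Fin s) F)
  inv := ((C₁⁻¹ : GL (Fin s) F) : Matrix (Fin s) (Fin s) F) ⊗ₖ ((C₂⁻¹ : GL (Fin s) F) : Matrix (Fin s) (Fin s) F)
  val_inv := by
    rw [← Matrix.mul_kronecker_mul, ← Units.val_mul, ← Units.val_mul, mul_inv_cancel, mul_inv_cancel,
      Units.val_one, Matrix.one_kronecker_one]
  inv_val := by
    rw [← Matrix.mul_kronecker_mul, ← Units.val_mul, ← Units.val_mul, inv_mul_cancel, inv_mul_cancel,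
      Units.val_one, Matrix.one_kronecker_one]

theorem t2wg_pt (C₁ C₂ : GL (Fin s) F) :
    ((glReindex (finTwoArrowEquiv (Fin s)).symm (t2wgK C₁ C₂) : GL (Fin 2 → Fin s) F) :
      Matrix (Fin 2 → Fin s) (Fin 2 → Fin s) F)
      = pt ![(C₁ : Matrix (Fin s) (Fin s) F), (C₂ : Matrix (Fin s) (Fin s) F)] := by
  ext u v
  rw [pt_apply, Fin.prod_univ_two]
  change ((C₁ : Matrix (Fin s) (Fin s) F) ⊗ₖ (C₂ : Matrix (Fin s) (Fin s) F)) (finTwoArrowEquiv (Fin s) u)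
      (finTwoArrowEquiv (Fin s) v) = _
  simp [Matrix.kroneckerMap_apply, finTwoArrowEquiv]

theorem t2wg_pt_inv (C₁ C₂ : GL (Fin s) F) :
    (((glReindex (finTwoArrowEquiv (Fin s)).symm (t2wgK C₁ C₂))⁻¹ : GL (Fin 2 → Fin s) F) :
      Matrix (Fin 2 → Fin s) (Fin 2 → Fin s) F)
      = pt ![((C₁⁻¹ : GL (Fin s) F) : Matrix (Fin s) (Fin s) F), ((C₂⁻¹ : GL (Fin s) F) : Matrix (Fin s) (Fin s) F)] := by
  ext u v
  rw [pt_apply, Fin.prod_univ_two]
  change (((C₁⁻¹ : GL (Fin s) F) : Matrix (Fin s) (Fin s) F) ⊗ₖ ((C₂⁻¹ : GL (Fin s) F) : Matrix (Fin s) (Fin s) F))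
      (finTwoArrowEquiv (Fin s) u) (finTwoArrowEquiv (Fin s) v) = _
  simp [Matrix.kroneckerMap_apply, finTwoArrowEquiv]

theorem t2wg_reindex (e : Fin n ≃ Fin s × Fin s) (k : GL (Fin s × Fin s) F) :
    glReindex e.symm k = glReindex (eWs e).symm (glReindex (finTwoArrowEquiv (Fin s)).symm k) := by
  apply Units.ext
  ext a b
  rfl

theorem exists_changeP (e : Fin n ≃ Fin s × Fin s) (P : GL (Fin n) F) (C₁ C₂ : GL (Fin s) F) :
    ∃ P' : GL (Fin n) F,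
      (∀ x : Fin s × Fin s → F, (P' : Matrix (Fin n) (Fin n) F) *ᵥ (x ∘ e) = (P : Matrix (Fin n) (Fin n) F) *ᵥ
        ((((C₁ : Matrix (Fin s) (Fin s) F) ⊗ₖ (C₂ : Matrix (Fin s) (Fin s) F)) *ᵥ x) ∘ e)) ∧
      tensorWreathSubgroup s 2 (eWs e) P' = tensorWreathSubgroup s 2 (eWs e) P ∧
      tensorProductSubgroup s s e P' = tensorProductSubgroup s s e P ∧
      ∀ (i : Fin 2) (x : Matrix (Fin s) (Fin s) F), ∃ y, tw (eWs e) P (slot i x) = tw (eWs e) P' (slot i y) := by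
  refine ⟨P * glReindex e.symm (t2wgK C₁ C₂), ?_, ?_, ?_, ?_⟩
  · intro x
    rw [Units.val_mul, ← Matrix.mulVec_mulVec]
    congr 1
    change ((C₁ : Matrix (Fin s) (Fin s) F) ⊗ₖ (C₂ : Matrix (Fin s) (Fin s) F)).submatrix e e *ᵥ (x ∘ e) = _
    rw [Matrix.submatrix_mulVec_equiv]
    simp [Function.comp_assoc]
  · unfold tensorWreathSubgroup
    apply t2wg_map_conj
    rw [t2wg_reindex]
    refine ⟨_, ?_, rfl⟩
    apply Subgroup.subset_closure
    left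
    refine ⟨![C₁, C₂], fun u v => ?_⟩
    rw [t2wg_pt, pt_apply, Fin.prod_univ_two, Fin.prod_univ_two]
    rfl
  · unfold tensorProductSubgroup
    apply t2wg_map_conj
    exact ⟨_, ⟨C₁, C₂, rfl⟩, rfl⟩
  · intro i x
    have h : ∀ j, (![(C₁ : Matrix (Fin s) (Fin s) F), (C₂ : Matrix (Fin s) (Fin s) F)]) j *
        (![((C₁⁻¹ : GL (Fin s) F) : Matrix (Fin s) (Fin s) F), ((C₂⁻¹ : GL (Fin s) F) : Matrix (Fin s) (Fin s) F)]) j
          = 1 := by
      intro j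
      fin_cases j
      · change (C₁ : Matrix (Fin s) (Fin s) F) * ((C₁⁻¹ : GL (Fin s) F) : Matrix (Fin s) (Fin s) F) = 1
        rw [← Units.val_mul, mul_inv_cancel, Units.val_one]
      · change (C₂ : Matrix (Fin s) (Fin s) F) * ((C₂⁻¹ : GL (Fin s) F) : Matrix (Fin s) (Fin s) F) = 1
        rw [← Units.val_mul, mul_inv_cancel, Units.val_one]
    generalize hCs : (![(C₁ : Matrix (Fin s) (Fin s) F), (C₂ : Matrix (Fin s) (Fin s) F)]) = Cs at h
    generalize hCs' : (![((C₁⁻¹ : GL (Fin s) F) : Matrix (Fin s) (Fin s) F),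
      ((C₂⁻¹ : GL (Fin s) F) : Matrix (Fin s) (Fin s) F)]) = Cs' at h
    refine ⟨Cs' i * x * Cs i, ?_⟩
    have h1 := pt_conj_slot Cs Cs' h i (Cs' i * x * Cs i)
    have h2 : Cs i * (Cs' i * x * Cs i) * Cs' i = x := by
      rw [mul_assoc, mul_assoc, h i, mul_one, ← mul_assoc, h i, one_mul]
    rw [h2] at h1
    rw [← h1]
    unfold tw
    rw [t2wg_reindex, mul_inv_rev, Units.val_mul, Units.val_mul]
    have h3 : ((glReindex (eWs e).symm (glReindex (finTwoArrowEquiv (Fin s)).symm (t2wgK C₁ C₂)) : GL (Fin n) F) :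
        Matrix (Fin n) (Fin n) F) = Matrix.reindex (eWs e).symm (eWs e).symm (pt Cs) := by
      rw [← hCs, ← t2wg_pt]
      rfl
    have h4 : (((glReindex (eWs e).symm (glReindex (finTwoArrowEquiv (Fin s)).symm (t2wgK C₁ C₂)))⁻¹ : GL (Fin n) F) :
        Matrix (Fin n) (Fin n) F) = Matrix.reindex (eWs e).symm (eWs e).symm (pt Cs') := by
      rw [← hCs', ← t2wg_pt_inv, ← map_inv]
      rfl
    rw [h3, h4]
    simp only [Matrix.reindex_apply, ← Matrix.submatrix_mul_equiv _ _ _ (eWs e).symm.symm, mul_assoc]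



theorem t2wf_gram [Fintype F] (q : ℕ) (hF : Fintype.card F = q ^ 2) {m : ℕ}
    (f : (Fin m → F) → (Fin m → F) → F) (h : IsUnitaryFormPow q f) (x y : Fin m → F) :
    formOfGram (fun x : F => x ^ q) (gramMatrix f) x y = f x y := by
  refine Cfsg.Agent.Lib.Helper17.TensorForm.formOfGram_gram _ f h.add_left h.smul_left ?_ ?_ x y
  · intro v x y
    rw [h.herm v (x + y), h.add_left, Cfsg.Agent.Lib.Helper17.add_pow_q hF, ← h.herm, ← h.herm]
  · intro c v x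
    rw [h.herm v (c • x), h.smul_left, mul_pow, ← h.herm]

theorem t2wf_single (a b : Fin s) : (Pi.single (a, b) 1 : Fin s × Fin s → F) =
    Cfsg.Agent.Lib.Helper17.TensorForm.tp (Pi.single a 1) (Pi.single b 1) := by
  ext ⟨i, j⟩
  simp only [Cfsg.Agent.Lib.Helper17.TensorForm.tp, Pi.single_apply, Prod.mk.injEq]
  by_cases h1 : i = a <;> by_cases h2 : j = b <;> simp [h1, h2]

theorem power_form_of_tensor [Fintype F] (q : ℕ) (hF : Fintype.card F = q ^ 2) (e : Fin n ≃ Fin s × Fin s)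
    (P P' : GL (Fin n) F) (f₁ f₂ : (Fin s → F) → (Fin s → F) → F) (h1 : IsUnitaryFormPow q f₁) (h2 : IsUnitaryFormPow q f₂)
    (hT : IsTensorFormStructure (fun x : F => x ^ q) (hermForm n F q) f₁ f₂ e P) (C₁ C₂ : GL (Fin s) F)
    (hC₁ : ∀ x y, f₁ ((C₁ : Matrix (Fin s) (Fin s) F) *ᵥ x) ((C₁ : Matrix (Fin s) (Fin s) F) *ᵥ y) = hermForm s F q x y)
    (hC₂ : ∀ x y, f₂ ((C₂ : Matrix (Fin s) (Fin s) F) *ᵥ x) ((C₂ : Matrix (Fin s) (Fin s) F) *ᵥ y) = hermForm s F q x y)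
    (hP' : ∀ x : Fin s × Fin s → F, (P' : Matrix (Fin n) (Fin n) F) *ᵥ (x ∘ e) = (P : Matrix (Fin n) (Fin n) F) *ᵥ
        ((((C₁ : Matrix (Fin s) (Fin s) F) ⊗ₖ (C₂ : Matrix (Fin s) (Fin s) F)) *ᵥ x) ∘ e)) :
    IsTensorPowerFormStructure (fun x : F => x ^ q) (hermForm n F q) (hermForm s F q) (eWs e) P' := by
  obtain ⟨c, hc, h⟩ := hT
  refine ⟨c, hc, fun x y => ?_⟩
  set Ψ : (Fin s × Fin s → F) → (Fin s × Fin s → F) → F := fun x' y' =>
    hermForm n F q ((P' : Matrix (Fin n) (Fin n) F) *ᵥ (x' ∘ e)) ((P' : Matrix (Fin n) (Fin n) F) *ᵥ (y' ∘ e)) with hΨ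
  have hg : ∀ p p', gramMatrix Ψ p p' =
      c * (gramMatrix (hermForm s F q) p.1 p'.1 * gramMatrix (hermForm s F q) p.2 p'.2) := by
    rintro ⟨a, b⟩ ⟨a', b'⟩
    change hermForm n F q ((P' : Matrix (Fin n) (Fin n) F) *ᵥ ((Pi.single (a, b) 1 : Fin s × Fin s → F) ∘ e))
      ((P' : Matrix (Fin n) (Fin n) F) *ᵥ ((Pi.single (a', b') 1 : Fin s × Fin s → F) ∘ e)) = _
    rw [hP', hP', h, t2wf_single, t2wf_single, Cfsg.Agent.Lib.Helper17.TensorForm.kron_mulVec_tp,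
      Cfsg.Agent.Lib.Helper17.TensorForm.kron_mulVec_tp,
      Cfsg.Agent.Lib.Helper17.TensorForm.formOfGram_tp _ (fun a b => mul_pow a b q),
      t2wf_gram q hF f₁ h1, t2wf_gram q hF f₂ h2, hC₁, hC₂]
    rfl
  have hs := Cfsg.Agent.Lib.Helper17.TensorForm.formOfGram_gram (fun x : F => x ^ q) Ψ
    (fun x y v => by
      change hermForm n F q ((P' : Matrix (Fin n) (Fin n) F) *ᵥ (x ∘ e + y ∘ e)) _ = _
      rw [Matrix.mulVec_add, Cfsg.Agent.Lib.Helper17.hermForm_add_left])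
    (fun a x v => by
      change hermForm n F q ((P' : Matrix (Fin n) (Fin n) F) *ᵥ (a • (x ∘ e))) _ = _
      rw [Matrix.mulVec_smul, Cfsg.Agent.Lib.Helper17.hermForm_smul_left])
    (fun v x y => by
      change hermForm n F q _ ((P' : Matrix (Fin n) (Fin n) F) *ᵥ (x ∘ e + y ∘ e)) = _
      rw [Matrix.mulVec_add, Cfsg.Agent.Lib.Helper17.hermForm_add_right hF])
    (fun a v x => by
      change hermForm n F q _ ((P' : Matrix (Fin n) (Fin n) F) *ᵥ (a • (x ∘ e))) = _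
      rw [Matrix.mulVec_smul, Cfsg.Agent.Lib.Helper17.hermForm_smul_right])
    (x ∘ (finTwoArrowEquiv (Fin s)).symm) (y ∘ (finTwoArrowEquiv (Fin s)).symm)
  change Ψ (x ∘ (finTwoArrowEquiv (Fin s)).symm) (y ∘ (finTwoArrowEquiv (Fin s)).symm) = _
  rw [← hs]
  unfold formOfGram
  rw [← Equiv.sum_comp (finTwoArrowEquiv (Fin s)).symm, Finset.mul_sum]
  refine Finset.sum_congr rfl fun p _ => ?_
  rw [← Equiv.sum_comp (finTwoArrowEquiv (Fin s)).symm, Finset.mul_sum]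
  refine Finset.sum_congr rfl fun p' _ => ?_
  rw [hg, Fin.prod_univ_two]
  obtain ⟨a, b⟩ := p
  obtain ⟨a', b'⟩ := p'
  simp [finTwoArrowEquiv]
  ring

end Cfsg.Agent.Lib.Helper62.UGT
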